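import Cfsg.Agent.H38.OrthTwoGen.Main
import Cfsg.Agent.H5.OmegaForms

/-!
The three families of orthogonal groups.
-/

set_option autoImplicit false

namespace Cfsg.Agent.H38.OrthTwoGen

open QuadraticMap hiding sq
open Cfsg.Agent.H5

variable {F : Type*} [Field F]

theorem pair_of_equiv {G H : Type*} [Group G] [Group H] (φ : G ≃* H)
    (h : ∃ a b : H, Subgroup.closure ({a, b} : Set H) = ⊤) :
    ∃ a b : G, Subgroup.closure ({a, b} : Set G) = ⊤ := by
  obtain ⟨a, b, hab⟩ := h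
  refine ⟨φ.symm a, φ.symm b, ?_⟩
  have h := MonoidHom.map_closure φ.symm.toMonoidHom ({a, b} : Set H)
  rw [hab, Subgroup.map_top_of_surjective _ φ.symm.surjective, Set.image_pair] at h
  exact h.symm

theorem pomega_pair {ι : Type} [Fintype ι] [DecidableEq ι] [Finite F] (Q : QuadraticForm F (ι → F))
    {q : (ι → F) → F} (hq : ⇑Q = q)
    (h : ∃ a b : orth Q, a ∈ commutator (orth Q) ∧ b ∈ commutator (orth Q) ∧
      commutator (orth Q) ≤ Subgroup.closure {a, b}) :
    ∃ a b : Cfsg.POmega F q, Subgroup.closure ({a, b} : Set (Cfsg.POmega F q)) = ⊤ := by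
  obtain ⟨a, b, ha, hb, hle⟩ := h
  refine pair_of_equiv (pomegaEquiv Q hq) ⟨QuotientGroup.mk' _ ⟨a, ha⟩, QuotientGroup.mk' _ ⟨b, hb⟩, ?_⟩
  have h1 : Subgroup.closure ({⟨a, ha⟩, ⟨b, hb⟩} : Set (commutator (orth Q))) = ⊤ := by
    apply Subgroup.map_injective (commutator (orth Q)).subtype_injective
    rw [MonoidHom.map_closure, Set.image_pair, ← MonoidHom.range_eq_map, Subgroup.range_subtype]
    refine le_antisymm ?_ hle
    rw [Subgroup.closure_le]
    rintro x (rfl | rfl)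
    exacts [ha, hb]
  have h2 := MonoidHom.map_closure (QuotientGroup.mk' (Subgroup.center (commutator (orth Q))))
    ({⟨a, ha⟩, ⟨b, hb⟩} : Set (commutator (orth Q)))
  rw [h1, Subgroup.map_top_of_surjective _ (QuotientGroup.mk'_surjective _), Set.image_pair] at h2
  exact h2.symm

theorem top_le_of_single {ι : Type} [Fintype ι] [DecidableEq ι] {S : Submodule F (ι → F)}
    (h : ∀ i, Pi.single i (1 : F) ∈ S) : ⊤ ≤ S := by
  intro x _
  rw [pi_eq_sum_univ' x]
  exact Submodule.sum_mem _ fun i _ => Submodule.smul_mem _ _ (h i)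

theorem finrank_eq_card (ι : Type) [Fintype ι] : Module.finrank F (ι → F) = Fintype.card ι :=
  Module.finrank_fintype_fun_eq_card F

/-! ### Plus type -/

theorem polar_single_plus {m : ℕ} (x y : Fin m ⊕ Fin m) :
    polar (qPlus m F) (Pi.single x 1) (Pi.single y 1) = if y = x.swap then 1 else 0 := by
  rw [H5.polar_qPlus]
  rcases x with i | i <;> rcases y with j | j <;> simp [Pi.single_apply]
  all_goals by_cases h : i = j <;> simp [h, eq_comm]

theorem norm_single_plus {m : ℕ} (x : Fin m ⊕ Fin m) : qPlus m F (Pi.single x 1) = 0 := by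
  rw [H5.coe_qPlus, Cfsg.quadFormPlus]
  refine Finset.sum_eq_zero fun i _ => ?_
  rcases x with j | j <;> simp [Pi.single_apply]

theorem plus_pair [Finite F] (m : ℕ) (hm : 5 ≤ m) :
    ∃ a b : Cfsg.POmega F (Cfsg.quadFormPlus m F),
      Subgroup.closure ({a, b} : Set (Cfsg.POmega F (Cfsg.quadFormPlus m F))) = ⊤ := by
  classical
  haveI : Finite (Fin m ⊕ Fin m → F) := Pi.finite
  refine pomega_pair (qPlus m F) (H5.coe_qPlus m) ?_
  let e : ℕ → Fin m ⊕ Fin m → F := fun i => Pi.single (.inl ⟨i % m, Nat.mod_lt _ (by omega)⟩) 1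
  let f : ℕ → Fin m ⊕ Fin m → F := fun i => Pi.single (.inr ⟨i % m, Nat.mod_lt _ (by omega)⟩) 1
  set l : Fin m := ⟨m - 1, by omega⟩
  set β : Fin m ⊕ Fin m → F := Pi.single (.inl l) 1
  set β' : Fin m ⊕ Fin m → F := Pi.single (.inr l) 1
  set γ := β - β'
  have hbb : polar (qPlus m F) β β' = 1 := by rw [polar_single_plus]; simp
  have hb0 : polar (qPlus m F) β β = 0 := by rw [polar_single_plus]; simp
  have hb'0 : polar (qPlus m F) β' β' = 0 := by rw [polar_single_plus]; simp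
  have hγ : qPlus m F γ = -1 := by
    rw [show γ = β - β' from rfl, H5.map_sub', norm_single_plus, norm_single_plus, hbb]; ring
  have hr : (refl (qPlus m F) γ : (Fin m ⊕ Fin m → F) ≃ₗ[F] (Fin m ⊕ Fin m → F)) β = β' := by
    rw [refl_apply, hγ]
    simp only [γ, polar_sub_left, hb0, polar_comm (⇑(qPlus m F)) β' β, hbb]
    norm_num
  refine exists_pair (k := m - 1) (e := e) (f := f) (β := β) (γ := γ) (H5.qPlus_nondegenerate m)
    (by rw [finrank_eq_card]; simp; omega) ⟨by omega, ⟨?_, ?_, ?_, ?_, ?_⟩, ?_, ?_, ?_⟩ ?_ ?_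
  · exact fun i _ => norm_single_plus _
  · exact fun i _ => norm_single_plus _
  · exact fun i _ j _ => by simp [e, polar_single_plus]
  · exact fun i _ j _ => by simp [f, polar_single_plus]
  · intro i hi j hj
    simp [e, f, polar_single_plus, Nat.mod_eq_of_lt (show i < m by omega),
      Nat.mod_eq_of_lt (show j < m by omega), eq_comm]
  · intro i hi
    simp [e, f, β, l, polar_single_plus, Nat.mod_eq_of_lt (show i < m by omega), Fin.ext_iff]
    omega
  · intro i hi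
    simp [e, f, γ, β, β', l, polar_sub_right, polar_single_plus, Nat.mod_eq_of_lt (show i < m by omega),
      Fin.ext_iff]
    omega
  · rw [hγ]; simp
  · rw [hr]
    refine top_le_of_single fun x => Submodule.subset_span ?_
    rcases x with i | i <;> by_cases hi : i.val = m - 1
    · exact Or.inr (Or.inl (by rw [show i = l from Fin.ext hi]))
    · exact Or.inl (Or.inl ⟨i.val, (by simp only [Set.mem_Iio]; omega),
        by simp [e, Nat.mod_eq_of_lt i.2]⟩)
    · exact Or.inr (Or.inr (by rw [show i = l from Fin.ext hi]; rfl))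
    · exact Or.inl (Or.inr ⟨i.val, (by simp only [Set.mem_Iio]; omega),
        by simp [f, Nat.mod_eq_of_lt i.2]⟩)
  · exact Or.inr (Or.inl ⟨by omega, by rw [hr, polar_comm, hbb]; exact one_ne_zero⟩)

/-! ### Odd dimension -/

theorem odd_pair [Finite F] (m : ℕ) (hm : 3 ≤ m) (h2 : (2 : F) ≠ 0) :
    ∃ a b : Cfsg.POmega F (Cfsg.quadFormOdd m F),
      Subgroup.closure ({a, b} : Set (Cfsg.POmega F (Cfsg.quadFormOdd m F))) = ⊤ := by
  classical
  haveI : Finite (Unit ⊕ (Fin m ⊕ Fin m) → F) := Pi.finite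
  refine pomega_pair (qOdd m F) (H5.coe_qOdd m) ?_
  let e : ℕ → Unit ⊕ (Fin m ⊕ Fin m) → F := fun i =>
    Pi.single (.inr (.inl ⟨i % m, Nat.mod_lt _ (by omega)⟩)) 1
  let f : ℕ → Unit ⊕ (Fin m ⊕ Fin m) → F := fun i =>
    Pi.single (.inr (.inr ⟨i % m, Nat.mod_lt _ (by omega)⟩)) 1
  set β : Unit ⊕ (Fin m ⊕ Fin m) → F := Pi.single (.inl ()) 1
  have hβ : qOdd m F β = 1 := by simp [H5.coe_qOdd, Cfsg.quadFormOdd, β]
  refine exists_pair (k := m) (e := e) (f := f) (β := β) (γ := β) (H5.qOdd_nondegenerate m h2)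
    (by rw [finrank_eq_card]; simp; omega) ⟨by omega, ⟨?_, ?_, ?_, ?_, ?_⟩, ?_, ?_, ?_⟩ ?_ ?_
  · intro i _; simp [e, H5.coe_qOdd, Cfsg.quadFormOdd, Pi.single_apply]
  · intro i _; simp [f, H5.coe_qOdd, Cfsg.quadFormOdd, Pi.single_apply]
  · intro i _ j _; simp [e, H5.polar_qOdd, Pi.single_apply]
  · intro i _ j _; simp [f, H5.polar_qOdd, Pi.single_apply]
  · intro i hi j hj
    simp [e, f, H5.polar_qOdd, Pi.single_apply, Nat.mod_eq_of_lt hi, Nat.mod_eq_of_lt hj, Fin.ext_iff,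
      eq_comm]
    rw [Finset.sum_eq_single (⟨i, hi⟩ : Fin m)] <;> simp +contextual [Fin.ext_iff, eq_comm]
  · intro i _; simp [e, f, β, H5.polar_qOdd, Pi.single_apply]
  · intro i _; simp [e, f, β, H5.polar_qOdd, Pi.single_apply]
  · rw [hβ]; exact one_ne_zero
  · refine top_le_of_single fun x => Submodule.subset_span ?_
    rcases x with ⟨⟩ | i | i
    · exact Or.inr (Or.inl rfl)
    · exact Or.inl (Or.inl ⟨i.val, i.2, by simp [e, Nat.mod_eq_of_lt i.2]⟩)
    · exact Or.inl (Or.inr ⟨i.val, i.2, by simp [f, Nat.mod_eq_of_lt i.2]⟩)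
  · exact Or.inl (by rw [polar_self', hβ, mul_one]; exact h2)

/-! ### Minus type -/

theorem minus_pair [Finite F] (k : ℕ) (hk : 3 ≤ k) (a b : F)
    (hab : ∀ z₁ z₂ : F, z₁ ^ 2 + a * z₁ * z₂ + b * z₂ ^ 2 = 0 → z₁ = 0 ∧ z₂ = 0) :
    ∃ g h : Cfsg.POmega F (Cfsg.quadFormMinus k F a b),
      Subgroup.closure ({g, h} : Set (Cfsg.POmega F (Cfsg.quadFormMinus k F a b))) = ⊤ := by
  classical
  haveI : Finite ((Fin k ⊕ Fin k) ⊕ Fin 2 → F) := Pi.finite
  refine pomega_pair (qMinus k F a b) (H5.coe_qMinus k a b) ?_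
  set Q := qMinus k F a b
  let e : ℕ → (Fin k ⊕ Fin k) ⊕ Fin 2 → F := fun i =>
    Pi.single (.inl (.inl ⟨i % k, Nat.mod_lt _ (by omega)⟩)) 1
  let f : ℕ → (Fin k ⊕ Fin k) ⊕ Fin 2 → F := fun i =>
    Pi.single (.inl (.inr ⟨i % k, Nat.mod_lt _ (by omega)⟩)) 1
  set β : (Fin k ⊕ Fin k) ⊕ Fin 2 → F := Pi.single (.inr 0) 1
  set β₁ : (Fin k ⊕ Fin k) ⊕ Fin 2 → F := Pi.single (.inr 1) 1
  -- the second vector is not orthogonal to the first
  obtain ⟨s, hs⟩ : ∃ s : F, a + 2 * s ≠ 0 := by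
    by_cases ha : a = 0
    · refine ⟨1, ?_⟩
      have h4 := four_mul_sub_ne_zero hab
      subst ha
      intro h
      exact h4 (by linear_combination (2 * b) * h)
    · exact ⟨0, by simpa using ha⟩
  set γ := s • β + β₁
  have hQγ : Q γ = s ^ 2 + a * s + b := by
    simp [Q, γ, β, β₁, H5.coe_qMinus, Cfsg.quadFormMinus, Pi.single_apply]
  have hγ : Q γ ≠ 0 := by
    rw [hQγ]; intro h
    exact one_ne_zero (hab s 1 (by linear_combination h)).2
  have hQβ : Q β = 1 := by simp [Q, β, H5.coe_qMinus, Cfsg.quadFormMinus, Pi.single_apply]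
  have hβγ : polar Q γ β = a + 2 * s := by
    have h : polar Q β₁ β = a := by simp [Q, β, β₁, H5.polar_qMinus, Pi.single_apply]
    rw [polar_add_left, polar_smul_left, polar_self', hQβ, h, smul_eq_mul]; ring
  refine exists_pair (k := k) (e := e) (f := f) (β := β) (γ := γ) (H5.qMinus_nondegenerate k hab)
    (by rw [finrank_eq_card]; simp; omega) ⟨hk, ⟨?_, ?_, ?_, ?_, ?_⟩, ?_, ?_, hγ⟩ ?_ ?_
  · intro i _; simp [Q, e, H5.coe_qMinus, Cfsg.quadFormMinus, Pi.single_apply]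
  · intro i _; simp [Q, f, H5.coe_qMinus, Cfsg.quadFormMinus, Pi.single_apply]
  · intro i _ j _; simp [Q, e, H5.polar_qMinus, Pi.single_apply]
  · intro i _ j _; simp [Q, f, H5.polar_qMinus, Pi.single_apply]
  · intro i hi j hj
    simp [Q, e, f, H5.polar_qMinus, Pi.single_apply, Nat.mod_eq_of_lt hi, Nat.mod_eq_of_lt hj,
      Fin.ext_iff, eq_comm]
    rw [Finset.sum_eq_single (⟨i, hi⟩ : Fin k)] <;> simp +contextual [Fin.ext_iff, eq_comm]
  · intro i _; simp [Q, e, f, β, H5.polar_qMinus, Pi.single_apply]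
  · intro i _; simp [Q, e, f, γ, β, β₁, H5.polar_qMinus, Pi.single_apply]
  · have hr : (refl Q γ : ((Fin k ⊕ Fin k) ⊕ Fin 2 → F) ≃ₗ[F] ((Fin k ⊕ Fin k) ⊕ Fin 2 → F)) β =
        β - ((Q γ)⁻¹ * (a + 2 * s)) • γ := by rw [refl_apply, hβγ]
    refine top_le_of_single fun x => ?_
    rcases x with (i | i) | i
    · exact Submodule.subset_span (Or.inl (Or.inl ⟨i.val, i.2, by simp [e, Nat.mod_eq_of_lt i.2]⟩))
    · exact Submodule.subset_span (Or.inl (Or.inr ⟨i.val, i.2, by simp [f, Nat.mod_eq_of_lt i.2]⟩))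
    · set S := Submodule.span F (e '' Set.Iio k ∪ f '' Set.Iio k ∪
        {β, (refl Q γ : ((Fin k ⊕ Fin k) ⊕ Fin 2 → F) ≃ₗ[F] ((Fin k ⊕ Fin k) ⊕ Fin 2 → F)) β})
      have hb : β ∈ S := Submodule.subset_span (Or.inr (Or.inl rfl))
      have hb' : β - ((Q γ)⁻¹ * (a + 2 * s)) • γ ∈ S := hr ▸ Submodule.subset_span (Or.inr (Or.inr rfl))
      have hcg : γ ∈ S := by
        have h := Submodule.smul_mem S ((Q γ)⁻¹ * (a + 2 * s))⁻¹ (sub_mem hb hb')
        rwa [sub_sub_cancel, smul_smul, inv_mul_cancel₀ (mul_ne_zero (inv_ne_zero hγ) hs), one_smul] at h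
      fin_cases i
      · exact hb
      · have h := sub_mem hcg (Submodule.smul_mem S s hb)
        have hγs : γ - s • β = β₁ := by simp only [γ]; abel
        rwa [hγs] at h
  · by_cases h2 : (2 : F) = 0
    · have hμ : polar Q ((refl Q γ : ((Fin k ⊕ Fin k) ⊕ Fin 2 → F) ≃ₗ[F] ((Fin k ⊕ Fin k) ⊕ Fin 2 → F)) β) β ≠ 0 := by
        rw [refl_apply, polar_sub_left, polar_smul_left, polar_self', hQβ, hβγ]
        generalize a + 2 * s = d at hs ⊢
        rw [h2, zero_mul, zero_sub, smul_eq_mul]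
        exact neg_ne_zero.2 (mul_ne_zero (mul_ne_zero (inv_ne_zero hγ) hs) hs)
      rcases eq_or_lt_of_le hk with h | h
      · exact Or.inr (Or.inr ⟨h.symm, hμ, by rw [hQβ]; exact one_ne_zero,
          fun x => isSquare_of_two_eq_zero h2 x⟩)
      · exact Or.inr (Or.inl ⟨h, hμ⟩)
    · exact Or.inl (by rw [polar_self', hQβ, mul_one]; exact h2)

end Cfsg.Agent.H38.OrthTwoGen
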