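import Cfsg.Agent.H38.OrthTwoGen.Moves

/-!
The generation criterion and the separation of a torus element from a root element.
-/

set_option autoImplicit false

namespace Cfsg.Agent.H38.OrthTwoGen

open QuadraticMap hiding sq
open Cfsg.Agent.H5

variable {F V : Type*} [Field F] [AddCommGroup V] [Module F V] {Q : QuadraticForm F V}

namespace Cyc

variable {w : orth Q} {k : ℕ} {e β : V} {M : Subgroup (orth Q)} (hC : Cyc Q w k e β) (hw : w ∈ M)

include hC hw

/-- The auxiliary root group in the other parity. -/
theorem lineB_one (hD : ∀ d : ℕ, 1 ≤ d → d < k → Line M e (orb w e (d : ℤ)) ∧ Line M e (orb w e (-(d : ℤ))))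
    (hB : Line M e β) : Line M e (orb w β 1) := by
  have hk := hC.three_le
  set d : ℤ := ((k - 1 : ℕ) : ℤ) with hd
  have hud : Line M (orb w e d) e := (hD (k - 1) (by omega) (by omega)).1.flip (hC.orb_sing _)
  have hd1 : Line M e (orb w e 1) := (hD 1 le_rfl (by omega)).1
  have hdk : Line M (orb w e d) (orb w e k) := by
    have h := hC.line_shift hw (i := 0) (by rwa [orb_zero]) d (d := 1)
    rwa [add_zero, show d + 1 = (k : ℤ) by omega] at h
  have hbk : Line M (orb w e k) (orb w β k) := hB.conj (zpow_mem hw (k : ℤ))
  obtain ⟨hQu, hua, hg⟩ := hbk 1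
  rw [one_smul] at hua hg
  have hbe : polar Q (orb w β k) e = 0 := by
    rw [polar_comm]; simpa [orb_zero] using hC.polarB 0 k
  have hfix : (eich Q (orb w e k) (orb w β k) : V ≃ₗ[F] V) (orb w e d) = orb w e d := by
    refine eich_apply_of_ortho hQu hua (hC.polar_zero' ?_) ?_
    · exact ne_half (by omega) (by omega) (by omega) (by omega)
    · rw [polar_comm, hC.polarB]
  have hν : polar Q (orb w e k) e ≠ 0 := by rw [polar_comm]; exact hC.anti
  have h := hud.conj hg
  rw [hfix, eich_apply hQu hua, hbe, zero_smul, sub_zero] at h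
  have h' := (h.sub hud).add (hdk.smul (Q (orb w β k) * polar Q (orb w e k) e))
  have h'' : Line M (orb w e d) (polar Q (orb w e k) e • orb w β k) := by
    intro c
    have := h' c
    convert this using 2
    module
  have h3 := (h''.of_smul _ hν).conj (zpow_mem hw (-d))
  rw [← orb_add, neg_add_cancel, orb_zero, ← orb_add, show -d + (k : ℤ) = 1 by omega] at h3
  exact h3

/-- The generation criterion. -/
theorem commutator_le [FiniteDimensional F V] [Finite F] [Finite V]
    (hQ : (polarBilin Q).Nondegenerate) (hn : 5 ≤ Module.finrank F V)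
    (hD : ∀ d : ℕ, 1 ≤ d → d < k → Line M e (orb w e (d : ℤ)) ∧ Line M e (orb w e (-(d : ℤ))))
    (hB : Line M e β) (hspan : ⊤ ≤ Submodule.span F (Set.range (orb w e) ∪ {β, orb w β 1})) :
    commutator (orth Q) ≤ M := by
  have hk := hC.three_le
  have hB1 := hC.lineB_one hw hD hB
  set f := orb w e (k : ℤ)
  have hν : polar Q e f ≠ 0 := hC.anti
  let π : V → V := fun x => x - (polar Q e x / polar Q e f) • f
  have hπ : ∀ x, Line M e (π x) := by
    intro x
    have hx : x ∈ Submodule.span F (Set.range (orb w e) ∪ {β, orb w β 1}) := hspan trivial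
    induction hx using Submodule.span_induction with
    | mem y hy =>
      rcases hy with ⟨n, rfl⟩ | rfl | rfl
      · obtain ⟨t, ht, e'⟩ := hC.orb_mod n
        obtain ⟨r, hr⟩ := Int.eq_ofNat_of_zero_le
          (Int.emod_nonneg n (show ((2 * k : ℕ) : ℤ) ≠ 0 by omega))
        have hlt := Int.emod_lt_of_pos n (show (0 : ℤ) < ((2 * k : ℕ) : ℤ) by omega)
        rw [hr] at hlt e'
        have hlt' : r < 2 * k := by exact_mod_cast hlt
        by_cases hrk : r = k
        · subst hrk
          have : π (orb w e n) = 0 := by
            simp only [π, e', f, polar_smul_right, smul_eq_mul, mul_div_assoc, div_self hν, mul_one, sub_self]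
          rw [this]; intro c; rw [smul_zero]; exact rootIn_zero hC.sing
        have hp : polar Q e (orb w e n) = 0 := hC.polar_zero n (by rw [hr]; exact_mod_cast hrk)
        have : π (orb w e n) = t • orb w e (r : ℤ) := by
          simp only [π]; rw [hp, zero_div, zero_smul, sub_zero, e']
        rw [this]
        refine Line.smul ?_ t
        rcases Nat.eq_zero_or_pos r with h0 | h0
        · subst h0; intro c; rw [Nat.cast_zero, orb_zero]; exact rootIn_self hC.sing c
        rcases lt_or_gt_of_ne hrk with h | h
        · exact (hD r h0 h).1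
        · have h2 := (hD (2 * k - r) (by omega) (by omega)).2
          obtain ⟨s, hs, e2⟩ := hC.orb_mod (-((2 * k - r : ℕ) : ℤ))
          rw [show (-((2 * k - r : ℕ) : ℤ)) % ((2 * k : ℕ) : ℤ) = (r : ℤ) by
            rw [show -((2 * k - r : ℕ) : ℤ) = (r : ℤ) - ((2 * k : ℕ) : ℤ) by omega, Int.sub_emod_right,
              Int.emod_eq_of_lt (by omega) (by omega)]] at e2
          rw [e2] at h2
          exact h2.of_smul s hs
      · have : polar Q e y = 0 := by simpa [orb_zero] using hC.polarB 0 0
        simpa [π, this] using hB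
      · have : polar Q e (orb w β 1) = 0 := by simpa [orb_zero] using hC.polarB 0 1
        simpa [π, this] using hB1
    | zero =>
      have : π 0 = 0 := by simp [π]
      rw [this]; intro c; rw [smul_zero]; exact rootIn_zero hC.sing
    | add y z _ _ hy hz =>
      have : π (y + z) = π y + π z := by simp only [π, polar_add_right, add_div]; module
      rw [this]; exact hy.add hz
    | smul t y _ hy =>
      have : π (t • y) = t • π y := by
        simp only [π, polar_smul_right, smul_eq_mul, mul_div_assoc]; module
      rw [this]; exact hy.smul t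
  have he : FullRoot M e := ⟨hC.sing, fun a ha => by
    have h := hπ a 1
    simp only [π, ha, zero_div, zero_smul, sub_zero, one_smul] at h
    exact h.2.2⟩
  exact commutator_le_of_fullRoot hQ hn he (he.conj (zpow_mem hw (k : ℤ))) hC.anti

end Cyc

/-- A root element with a torus element scaling it fills the root line. -/
theorem line_of_scale [Finite F] {M : Subgroup (orth Q)} {e a : V} {g : orth Q} (hg : g ∈ M) {z : Fˣ}
    (hz : ∀ x : Fˣ, x ∈ Subgroup.zpowers z) (hge : (g : V ≃ₗ[F] V) e = ((z : F) * z) • e)
    (hga : (g : V ≃ₗ[F] V) a = a) (h1 : RootIn M e a) : Line M e a := by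
  classical
  cases nonempty_fintype F
  let K : AddSubgroup F :=
    { carrier := {c | RootIn M e (c • a)}
      zero_mem' := by simpa using rootIn_zero h1.1
      add_mem' := fun {c d} hc hd => by simp only [Set.mem_setOf_eq] at *; rw [add_smul]; exact hc.add hd
      neg_mem' := fun {c} hc => by simp only [Set.mem_setOf_eq] at *; rw [neg_smul]; exact hc.neg }
  have hzne : (z : F) * z ≠ 0 := mul_ne_zero z.ne_zero z.ne_zero
  have hscale : ∀ c, c ∈ K → (z : F) * z * c ∈ K := by
    intro c hc
    have h := (RootIn.conj hg (show RootIn M e (c • a) from hc))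
    rw [hge, map_smul, hga] at h
    show RootIn M e _
    rw [← smul_smul]
    exact h.smul_left hzne
  have hsq : ∀ u : F, u * u ∈ K := by
    intro u
    by_cases hu : u = 0
    · rw [hu, mul_zero]; exact K.zero_mem
    obtain ⟨i, hi⟩ := (IsOfFinOrder.mem_powers_iff_mem_zpowers (isOfFinOrder_of_finite z)).mpr
      (hz (Units.mk0 u hu))
    have hi' : (z : F) ^ i = u := by simpa using congrArg (Units.val : Fˣ → F) hi
    rw [← hi']
    clear hi hi'
    induction i with
    | zero => rw [pow_zero, one_mul]; show RootIn M e _; rwa [one_smul]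
    | succ i ih =>
      have := hscale _ ih
      convert this using 1; ring
  intro c
  show c ∈ K
  by_cases h2 : ringChar F = 2
  · obtain ⟨u, rfl⟩ := FiniteField.isSquare_of_char_two h2 c
    exact hsq u
  · have h2' : (2 : F) ≠ 0 := Ring.two_ne_zero h2
    rw [show c = (c + 1) / 2 * ((c + 1) / 2) - (c - 1) / 2 * ((c - 1) / 2) by field_simp; ring]
    exact K.sub_mem (hsq _) (hsq _)

theorem eich_pow {e a : V} (he : Q e = 0) (ha : polar Q e a = 0) (n : ℕ) :
    eich Q e a ^ n = eich Q e ((n : F) • a) := by
  induction n with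
  | zero => rw [pow_zero, Nat.cast_zero, zero_smul, eich_zero]
  | succ n ih =>
    rw [pow_succ, ih, eich_mul he (by rw [polar_smul_right, ha, smul_zero]) ha, Nat.cast_succ, add_smul,
      one_smul]

/-- A commuting product of a torus element and a root element can be separated. -/
theorem separate [Finite F] {M : Subgroup (orth Q)} {e a : V} {h : orth Q} (he : Q e = 0)
    (ha : polar Q e a = 0) (hm : h * eich Q e a ∈ M) (hpow : h ^ (Nat.card F - 1) = 1)
    (hhe : (h : V ≃ₗ[F] V) e = e) (hha : (h : V ≃ₗ[F] V) a = a) : h ∈ M ∧ RootIn M e a := by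
  cases nonempty_fintype F
  have hcomm : Commute h (eich Q e a) := by
    have e' := eich_conj h e a
    rw [hhe, hha, mul_inv_eq_iff_eq_mul] at e'
    exact e'
  have hx : eich Q e a ∈ M := by
    have h1 := pow_mem hm (Nat.card F - 1)
    rw [hcomm.mul_pow, hpow, one_mul, eich_pow he ha, Nat.cast_sub Finite.one_lt_card.le, Nat.cast_one,
      Nat.card_eq_fintype_card, Nat.cast_card_eq_zero, zero_sub, neg_smul, one_smul, ← eich_inv he ha] at h1
    exact inv_mem_iff.1 h1
  refine ⟨?_, he, ha, hx⟩
  have := mul_mem hm (inv_mem hx)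
  rwa [mul_inv_cancel_right] at this

end Cfsg.Agent.H38.OrthTwoGen
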