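import Cfsg.Agent.H5.RootClosure

/-!
A generation criterion for orthogonal groups: a cyclic monomial element with one root group.
-/

set_option autoImplicit false

namespace Cfsg.Agent.H38.OrthTwoGen

open QuadraticMap hiding sq
open Cfsg.Agent.H5

variable {F V : Type*} [Field F] [AddCommGroup V] [Module F V] {Q : QuadraticForm F V}

/-- For orthogonal singular vectors the two descriptions of a root element agree. -/
theorem eich_swap {p q : V} (hp : Q p = 0) (hq : Q q = 0) (hpq : polar Q p q = 0) :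
    eich Q p q = eich Q q (-p) := by
  refine orth_ext fun x => ?_
  rw [eich_apply hp hpq, eich_apply hq (by rw [polar_neg_right, polar_comm, hpq, neg_zero])]
  simp only [polar_neg_left, QuadraticMap.map_neg, hp, hq, zero_mul, zero_smul, sub_zero, smul_neg,
    neg_smul]
  module

theorem rootIn_zero {M : Subgroup (orth Q)} {e : V} (he : Q e = 0) : RootIn M e 0 :=
  ⟨he, by simp, by rw [eich_zero]; exact one_mem _⟩

theorem rootIn_self {M : Subgroup (orth Q)} {e : V} (he : Q e = 0) (t : F) : RootIn M e (t • e) :=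
  ⟨he, by simp [polar_smul_right, polar_self', he], by
    have h := eich_add_smul he (show polar Q e 0 = 0 by simp) t
    rw [zero_add] at h
    rw [h, eich_zero]; exact one_mem _⟩

/-- The whole line `a` lies in the root group of `e`. -/
def Line (M : Subgroup (orth Q)) (e a : V) : Prop := ∀ c : F, RootIn M e (c • a)

namespace Line

variable {M : Subgroup (orth Q)} {e a b p q : V}

theorem add (ha : Line M e a) (hb : Line M e b) : Line M e (a + b) := fun c => by
  rw [smul_add]; exact (ha c).add (hb c)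

theorem smul (ha : Line M e a) (t : F) : Line M e (t • a) := fun c => by
  rw [smul_smul]; exact ha _

theorem sub (ha : Line M e a) (hb : Line M e b) : Line M e (a - b) := fun c => by
  rw [smul_sub]; exact (ha c).sub (hb c)

theorem of_smul (t : F) (ht : t ≠ 0) (ha : Line M e (t • a)) : Line M e a := by
  simpa [smul_smul, inv_mul_cancel₀ ht] using ha.smul t⁻¹

theorem conj {g : orth Q} (hg : g ∈ M) (ha : Line M e a) :
    Line M ((g : V ≃ₗ[F] V) e) ((g : V ≃ₗ[F] V) a) := fun c => by
  rw [← map_smul]; exact (ha c).conj hg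

theorem smul_left {t : F} (ht : t ≠ 0) (ha : Line M (t • e) a) : Line M e a := fun c => by
  have h := (ha (c * t⁻¹)).smul_left ht
  rwa [smul_smul, mul_left_comm, mul_inv_cancel₀ ht, mul_one] at h

theorem flip (hq : Q q = 0) (ha : Line M p q) : Line M q p := fun c => by
  obtain ⟨hp, hpq, -⟩ := ha 0
  obtain ⟨-, hpq, hm⟩ := ha (-c)
  by_cases hc : c = 0
  · rw [hc, zero_smul]; exact rootIn_zero hq
  have hpq' : polar Q p q = 0 := by
    rw [polar_smul_right, smul_eq_mul, mul_eq_zero] at hpq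
    exact hpq.resolve_left (neg_ne_zero.2 hc)
  have hqp : polar Q q p = 0 := by rw [polar_comm]; exact hpq'
  refine ⟨hq, by rw [polar_smul_right, hqp, smul_zero], ?_⟩
  rw [eich_swap hp (by rw [QuadraticMap.map_smul, hq, smul_zero])
      (by rw [polar_smul_right, hpq', smul_zero]),
    eich_smul_smul hq (by rw [polar_neg_right, hqp, neg_zero])] at hm
  simpa [smul_neg] using hm

end Line

/-- The orbit of a vector. -/
def orb (w : orth Q) (e : V) (n : ℤ) : V := ((w ^ n : orth Q) : V ≃ₗ[F] V) e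

theorem orb_zero (w : orth Q) (e : V) : orb w e 0 = e := by
  rw [orb, zpow_zero]; rfl

theorem orb_add (w : orth Q) (e : V) (m n : ℤ) :
    orb w e (m + n) = ((w ^ m : orth Q) : V ≃ₗ[F] V) (orb w e n) := by
  rw [orb, orb, zpow_add, orth_mul_apply]

theorem orb_one (w : orth Q) (e : V) : orb w e 1 = (w : V ≃ₗ[F] V) e := by
  rw [orb, zpow_one]

theorem polar_orb (w : orth Q) (x y : V) (i j : ℤ) :
    polar Q (orb w x i) (orb w y j) = polar Q x (orb w y (j - i)) := by
  conv_lhs => rw [show j = i + (j - i) by ring, orb_add]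
  rw [orb, orth_polar]

/-- A cyclic element of period `2k` with an auxiliary vector of period two. -/
structure Cyc (Q : QuadraticForm F V) (w : orth Q) (k : ℕ) (e β : V) : Prop where
  three_le : 3 ≤ k
  sing : Q e = 0
  period : ∃ t : F, t ≠ 0 ∧ orb w e (2 * k : ℕ) = t • e
  perp : ∀ j : ℕ, 0 < j → j < 2 * k → j ≠ k → polar Q e (orb w e j) = 0
  anti : polar Q e (orb w e k) ≠ 0
  perpB : ∀ j : ℕ, polar Q (orb w e j) β = 0
  periodB : orb w β 2 = β

namespace Cyc

variable {w : orth Q} {k : ℕ} {e β : V} (hC : Cyc Q w k e β)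

include hC

theorem orb_mod (n : ℤ) : ∃ t : F, t ≠ 0 ∧ orb w e n = t • orb w e (n % (2 * k : ℕ)) := by
  obtain ⟨s, hs, hp⟩ := hC.period
  set N : ℤ := ((2 * k : ℕ) : ℤ)
  have key : ∀ m : ℤ, orb w e (m + N) = s • orb w e m := fun m => by
    rw [orb_add, hp, map_smul]; rfl
  have h : ∀ q r : ℤ, ∃ t : F, t ≠ 0 ∧ orb w e (r + N * q) = t • orb w e r := by
    intro q r
    induction q using Int.induction_on with
    | zero => exact ⟨1, one_ne_zero, by simp⟩
    | succ q ih =>
      obtain ⟨t, ht, e'⟩ := ih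
      exact ⟨s * t, mul_ne_zero hs ht, by rw [mul_add, mul_one, ← add_assoc, key, e', smul_smul]⟩
    | pred q ih =>
      obtain ⟨t, ht, e'⟩ := ih
      refine ⟨s⁻¹ * t, mul_ne_zero (inv_ne_zero hs) ht, ?_⟩
      rw [show r + N * (-(q : ℤ)) = r + N * (-(q : ℤ) - 1) + N by ring, key] at e'
      rw [← smul_smul, ← e', smul_smul, inv_mul_cancel₀ hs, one_smul]
  obtain ⟨t, ht, e'⟩ := h (n / N) (n % N)
  exact ⟨t, ht, by rw [← e', Int.emod_add_mul_ediv]⟩

theorem orb_sing (n : ℤ) : Q (orb w e n) = 0 := by rw [orb, orth_map, hC.sing]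

theorem polar_zero (n : ℤ) (h : n % (2 * k : ℕ) ≠ k) : polar Q e (orb w e n) = 0 := by
  obtain ⟨t, -, e'⟩ := hC.orb_mod n
  have hk := hC.three_le
  obtain ⟨r, hr⟩ := Int.eq_ofNat_of_zero_le (Int.emod_nonneg n (show ((2 * k : ℕ) : ℤ) ≠ 0 by omega))
  have hlt : r < 2 * k := by
    have := Int.emod_lt_of_pos n (show (0 : ℤ) < ((2 * k : ℕ) : ℤ) by omega)
    rw [hr] at this
    exact_mod_cast this
  rw [e', hr, polar_smul_right]
  rcases Nat.eq_zero_or_pos r with h0 | h0
  · rw [h0, Nat.cast_zero, orb_zero, polar_self', hC.sing]; simp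
  · rw [hC.perp r h0 hlt (by intro h'; rw [hr, h'] at h; exact h rfl), smul_zero]

/-- Two positions that are not opposite are orthogonal. -/
theorem polar_zero' {i j : ℤ} (h : (j - i) % (2 * k : ℕ) ≠ k) :
    polar Q (orb w e i) (orb w e j) = 0 := by
  rw [polar_orb, hC.polar_zero _ h]

theorem polar_anti (i j : ℤ) (h : (j - i) % (2 * k : ℕ) = k) :
    polar Q (orb w e i) (orb w e j) ≠ 0 := by
  obtain ⟨t, ht, e'⟩ := hC.orb_mod (j - i)
  rw [polar_orb, e', h, polar_smul_right]
  exact mul_ne_zero ht hC.anti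

theorem orbB_even (q : ℤ) : orb w β (2 * q) = β := by
  induction q using Int.induction_on with
  | zero => rw [mul_zero, orb_zero]
  | succ q ih => rw [mul_add, mul_one, orb_add, hC.periodB]; exact ih
  | pred q ih =>
    have h : orb w β (2 * (-(q : ℤ) - 1) + 2) = orb w β (2 * (-(q : ℤ) - 1)) := by
      rw [orb_add, hC.periodB]; rfl
    rw [show (2 : ℤ) * (-(q : ℤ) - 1) + 2 = 2 * -(q : ℤ) by ring, ih] at h
    exact h.symm

theorem orbB_mod (n : ℤ) : orb w β n = if n % 2 = 0 then β else orb w β 1 := by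
  split_ifs with h
  · obtain ⟨q, rfl⟩ := Int.dvd_of_emod_eq_zero h
    exact hC.orbB_even q
  · obtain ⟨q, rfl⟩ : ∃ q, n = 1 + 2 * q := ⟨n / 2, by omega⟩
    rw [orb_add, hC.orbB_even]; rfl

theorem polarB (i j : ℤ) : polar Q (orb w e i) (orb w β j) = 0 := by
  rw [polar_comm, polar_orb, polar_comm]
  obtain ⟨t, -, e'⟩ := hC.orb_mod (i - j)
  have hk := hC.three_le
  obtain ⟨r, hr⟩ := Int.eq_ofNat_of_zero_le
    (Int.emod_nonneg (i - j) (show ((2 * k : ℕ) : ℤ) ≠ 0 by omega))
  rw [e', hr, polar_smul_left, hC.perpB, smul_zero]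

variable {M : Subgroup (orth Q)}


/-- Root lines at one position move along the orbit. -/
theorem line_shift (hw : w ∈ M) {i d : ℤ} (h : Line M (orb w e i) (orb w e d)) (m : ℤ) :
    Line M (orb w e (m + i)) (orb w e (m + d)) := by
  rw [orb_add, orb_add w e m d]
  exact h.conj (zpow_mem hw m)

theorem lineB_shift (hw : w ∈ M) {i d : ℤ} (h : Line M (orb w e i) (orb w β d)) (m : ℤ) :
    Line M (orb w e (m + i)) (orb w β (m + d)) := by
  rw [orb_add, orb_add w β m d]
  exact h.conj (zpow_mem hw m)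

theorem line_neg (hw : w ∈ M) {d : ℤ} (h : Line M e (orb w e d)) : Line M e (orb w e (-d)) := by
  have h1 := hC.line_shift hw (i := 0) (d := d) (by rwa [orb_zero]) (-d)
  rw [add_zero, neg_add_cancel, orb_zero] at h1
  exact h1.flip hC.sing

end Cyc

end Cfsg.Agent.H38.OrthTwoGen
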