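import Cfsg.Agent.H38.OrthTwoGen.Word

/-!
Two elements generating `Ω` of a form with a frame and a small complement.
-/

set_option autoImplicit false

namespace Cfsg.Agent.H38.OrthTwoGen

open QuadraticMap hiding sq
open Cfsg.Agent.H5

variable {F V : Type*} [Field F] [AddCommGroup V] [Module F V] {Q : QuadraticForm F V}
  {k : ℕ} {e f : ℕ → V} {β γ : V}

theorem orb_succ (w : orth Q) (x : V) (n : ℕ) :
    orb w x ((n + 1 : ℕ) : ℤ) = (w : V ≃ₗ[F] V) (orb w x (n : ℤ)) := by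
  rw [show ((n + 1 : ℕ) : ℤ) = 1 + (n : ℤ) by push_cast; ring, orb_add, zpow_one]

/-- The hypotheses on the data. -/
structure Setting (Q : QuadraticForm F V) (k : ℕ) (e f : ℕ → V) (β γ : V) : Prop where
  three_le : 3 ≤ k
  frame : Frame Q k e f
  offB : Off Q k e f β
  offG : Off Q k e f γ
  normG : Q γ ≠ 0

namespace Setting

variable (hS : Setting Q k e f β γ)

include hS

theorem cyc_apply :
    (∃ t : F, t ≠ 0 ∧ (cycEl Q k e f γ : V ≃ₗ[F] V) (e 0) = t • f (k - 1)) ∧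
    (∃ t : F, t ≠ 0 ∧ (cycEl Q k e f γ : V ≃ₗ[F] V) (f 0) = t • e (k - 1)) ∧
    (∀ i, i + 1 < k → (cycEl Q k e f γ : V ≃ₗ[F] V) (e (i + 1)) = -(e i) ∧
      (cycEl Q k e f γ : V ≃ₗ[F] V) (f (i + 1)) = -(f i)) ∧
    (∀ x, Off Q k e f x → (cycEl Q k e f γ : V ≃ₗ[F] V) x = (refl Q γ : V ≃ₗ[F] V) x) := by
  have hF := hS.frame
  have hk := hS.three_le
  obtain ⟨p1, p2, p3, p4⟩ := shiftEl_facts hF (k - 1) (by omega)
  have hc := hS.normG
  have hv : Q (e 0 + Q γ • f 0) = Q γ := by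
    rw [map_add_smul, hF.Qe 0 (by omega), hF.Qf 0 (by omega), hF.ef 0 (by omega) 0 (by omega), if_pos rfl]
    ring
  have hA : ∀ x, (cycEl Q k e f γ : V ≃ₗ[F] V) x = (shiftEl Q e f (k - 1) : V ≃ₗ[F] V)
      ((refl Q (e 0 + Q γ • f 0) : V ≃ₗ[F] V) ((refl Q γ : V ≃ₗ[F] V) x)) := fun x => rfl
  have hgam : ∀ i < k, (refl Q γ : V ≃ₗ[F] V) (e i) = e i ∧ (refl Q γ : V ≃ₗ[F] V) (f i) = f i :=
    fun i hi => ⟨refl_apply_of_ortho (by rw [polar_comm]; exact (hS.offG i hi).1),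
      refl_apply_of_ortho (by rw [polar_comm]; exact (hS.offG i hi).2)⟩
  refine ⟨⟨-Q γ, neg_ne_zero.2 hc, ?_⟩, ⟨-(Q γ)⁻¹, neg_ne_zero.2 (inv_ne_zero hc), ?_⟩,
    fun i hi => ?_, fun x hx => ?_⟩
  · rw [hA, (hgam 0 (by omega)).1, refl_apply, hv, polar_add_left, polar_smul_left,
      hF.ee 0 (by omega) 0 (by omega), polar_comm (⇑Q) (f 0) (e 0), hF.ef 0 (by omega) 0 (by omega),
      if_pos rfl, zero_add, smul_eq_mul, mul_one, inv_mul_cancel₀ hc, one_smul, sub_add_cancel_left,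
      ← neg_smul, map_smul, p2]
  · rw [hA, (hgam 0 (by omega)).2, refl_apply, hv, polar_add_left, polar_smul_left,
      hF.ef 0 (by omega) 0 (by omega), if_pos rfl, hF.ff 0 (by omega) 0 (by omega), smul_zero, add_zero,
      mul_one, smul_add, smul_smul, inv_mul_cancel₀ hc, one_smul,
      show f 0 - ((Q γ)⁻¹ • e 0 + f 0) = -((Q γ)⁻¹) • e 0 by module, map_smul, p1]
  · have h1 : polar Q (e 0 + Q γ • f 0) (e (i + 1)) = 0 := by
      rw [polar_add_left, polar_smul_left, hF.ee 0 (by omega) _ hi, polar_comm (⇑Q) (f 0),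
        hF.ef _ hi 0 (by omega), if_neg (by omega), smul_zero, add_zero]
    have h2 : polar Q (e 0 + Q γ • f 0) (f (i + 1)) = 0 := by
      rw [polar_add_left, polar_smul_left, hF.ef 0 (by omega) _ hi, if_neg (by omega),
        hF.ff 0 (by omega) _ hi, smul_zero, add_zero]
    rw [hA, hA, (hgam _ hi).1, (hgam _ hi).2, refl_apply_of_ortho h1, refl_apply_of_ortho h2]
    exact p3 i (by omega) (by omega)
  · have h1 : polar Q (e 0 + Q γ • f 0) ((refl Q γ : V ≃ₗ[F] V) x) = 0 := by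
      rw [refl_apply, polar_sub_right, polar_smul_right, polar_add_left, polar_smul_left, polar_add_left,
        polar_smul_left, (hx 0 (by omega)).1, (hx 0 (by omega)).2, (hS.offG 0 (by omega)).1,
        (hS.offG 0 (by omega)).2]
      simp
    rw [hA, refl_apply_of_ortho h1]
    refine p4 _ fun i hi => ?_
    rw [refl_apply, polar_sub_right, polar_sub_right, polar_smul_right, polar_smul_right,
      (hx i (by omega)).1, (hx i (by omega)).2, (hS.offG i (by omega)).1, (hS.offG i (by omega)).2]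
    simp

theorem orbit_f (n : ℕ) (hn : n < k) :
    ∃ t : F, t ≠ 0 ∧ orb (cycEl Q k e f γ) (e 0) ((n + 1 : ℕ) : ℤ) = t • f (k - 1 - n) := by
  obtain ⟨h1, -, h3, -⟩ := hS.cyc_apply
  induction n with
  | zero =>
    obtain ⟨t, ht, h⟩ := h1
    exact ⟨t, ht, by rw [orb_succ, Nat.cast_zero, orb_zero, h, Nat.sub_zero]⟩
  | succ n ih =>
    obtain ⟨t, ht, h⟩ := ih (by omega)
    refine ⟨-t, neg_ne_zero.2 ht, ?_⟩
    obtain ⟨j, hj⟩ : ∃ j, k - 1 - n = j + 1 := ⟨k - 1 - n - 1, by omega⟩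
    rw [orb_succ, h, map_smul, hj, (h3 j (by omega)).2, show k - 1 - (n + 1) = j by omega, smul_neg,
      neg_smul]

theorem orbit_e (n : ℕ) (hn : n < k) :
    ∃ t : F, t ≠ 0 ∧ orb (cycEl Q k e f γ) (e 0) ((k + n + 1 : ℕ) : ℤ) = t • e (k - 1 - n) := by
  obtain ⟨-, h2, h3, -⟩ := hS.cyc_apply
  induction n with
  | zero =>
    obtain ⟨s, hs, h⟩ := h2
    obtain ⟨t, ht, h'⟩ := hS.orbit_f (k - 1) (by omega)
    refine ⟨t * s, mul_ne_zero ht hs, ?_⟩
    rw [Nat.add_zero, orb_succ, show ((k : ℕ) : ℤ) = ((k - 1 + 1 : ℕ) : ℤ) by omega, h', map_smul,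
      Nat.sub_self, h, smul_smul, Nat.sub_zero]
  | succ n ih =>
    obtain ⟨t, ht, h⟩ := ih (by omega)
    refine ⟨-t, neg_ne_zero.2 ht, ?_⟩
    obtain ⟨j, hj⟩ : ∃ j, k - 1 - n = j + 1 := ⟨k - 1 - n - 1, by omega⟩
    rw [show k + (n + 1) + 1 = (k + n + 1) + 1 by omega, orb_succ, h, map_smul, hj, (h3 j (by omega)).1,
      show k - 1 - (n + 1) = j by omega, smul_neg, neg_smul]

/-- Every point of the orbit is a multiple of a frame vector. -/
theorem orbit_line (n : ℕ) : ∃ t : F, ∃ i < k,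
    orb (cycEl Q k e f γ) (e 0) (n : ℤ) = t • e i ∨ orb (cycEl Q k e f γ) (e 0) (n : ℤ) = t • f i := by
  have hk := hS.three_le
  obtain ⟨h1, h2, h3, -⟩ := hS.cyc_apply
  induction n with
  | zero => exact ⟨1, 0, by omega, Or.inl (by rw [Nat.cast_zero, orb_zero, one_smul])⟩
  | succ n ih =>
    obtain ⟨t, i, hi, h | h⟩ := ih
    · rcases i with _ | j
      · obtain ⟨s, -, hs⟩ := h1
        exact ⟨t * s, k - 1, by omega, Or.inr (by rw [orb_succ, h, map_smul, hs, smul_smul])⟩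
      · exact ⟨-t, j, by omega,
          Or.inl (by rw [orb_succ, h, map_smul, (h3 j hi).1, smul_neg, neg_smul])⟩
    · rcases i with _ | j
      · obtain ⟨s, -, hs⟩ := h2
        exact ⟨t * s, k - 1, by omega, Or.inl (by rw [orb_succ, h, map_smul, hs, smul_smul])⟩
      · exact ⟨-t, j, by omega,
          Or.inr (by rw [orb_succ, h, map_smul, (h3 j hi).2, smul_neg, neg_smul])⟩

theorem refl_off : Off Q k e f ((refl Q γ : V ≃ₗ[F] V) β) := fun i hi => by
  rw [refl_apply, polar_sub_right, polar_sub_right, polar_smul_right, polar_smul_right,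
    (hS.offB i hi).1, (hS.offB i hi).2, (hS.offG i hi).1, (hS.offG i hi).2]
  simp

theorem orbB_one : orb (cycEl Q k e f γ) β 1 = (refl Q γ : V ≃ₗ[F] V) β := by
  rw [orb_one]; exact hS.cyc_apply.2.2.2 β hS.offB

theorem cyc : Cyc Q (cycEl Q k e f γ) k (e 0) β where
  three_le := hS.three_le
  sing := hS.frame.Qe 0 (by have := hS.three_le; omega)
  period := by
    have hk := hS.three_le
    obtain ⟨t, ht, h⟩ := hS.orbit_e (k - 1) (by omega)
    exact ⟨t, ht, by rw [show 2 * k = k + (k - 1) + 1 by omega, h, Nat.sub_self]⟩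
  perp j hj hj2 hjk := by
    have hk := hS.three_le
    rcases Nat.lt_or_ge k j with h | h
    · obtain ⟨t, -, e'⟩ := hS.orbit_e (j - k - 1) (by omega)
      rw [show k + (j - k - 1) + 1 = j by omega] at e'
      rw [e', polar_smul_right, hS.frame.ee 0 (by omega) _ (by omega), smul_zero]
    · obtain ⟨t, -, e'⟩ := hS.orbit_f (j - 1) (by omega)
      rw [show j - 1 + 1 = j by omega] at e'
      rw [e', polar_smul_right, hS.frame.ef 0 (by omega) _ (by omega), if_neg (by omega), smul_zero]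
  anti := by
    have hk := hS.three_le
    obtain ⟨t, ht, e'⟩ := hS.orbit_f (k - 1) (by omega)
    rw [show k - 1 + 1 = k by omega] at e'
    rw [e', polar_smul_right, hS.frame.ef 0 (by omega) _ (by omega), if_pos (by omega), smul_eq_mul,
      mul_one]
    exact ht
  perpB j := by
    obtain ⟨t, i, hi, h | h⟩ := hS.orbit_line j <;> rw [h, polar_smul_left]
    · rw [(hS.offB i hi).1, smul_zero]
    · rw [(hS.offB i hi).2, smul_zero]
  periodB := by
    rw [show (2 : ℤ) = 1 + 1 by norm_num, orb_add, hS.orbB_one, zpow_one,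
      hS.cyc_apply.2.2.2 _ hS.refl_off, ← orth_mul_apply, refl_mul_self]
    rfl

theorem span_top
    (hA : ⊤ ≤ Submodule.span F (e '' Set.Iio k ∪ f '' Set.Iio k ∪ {β, (refl Q γ : V ≃ₗ[F] V) β})) :
    ⊤ ≤ Submodule.span F (Set.range (orb (cycEl Q k e f γ) (e 0)) ∪ {β, orb (cycEl Q k e f γ) β 1}) := by
  refine hA.trans (Submodule.span_le.2 ?_)
  rintro x ((⟨i, hi, rfl⟩ | ⟨i, hi, rfl⟩) | hx)
  · have hik : i < k := hi
    obtain ⟨t, ht, h⟩ := hS.orbit_e (k - 1 - i) (by omega)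
    rw [show k - 1 - (k - 1 - i) = i by omega] at h
    rw [show e i = t⁻¹ • orb (cycEl Q k e f γ) (e 0) ((k + (k - 1 - i) + 1 : ℕ) : ℤ) by
      rw [h, smul_smul, inv_mul_cancel₀ ht, one_smul]]
    exact Submodule.smul_mem _ _ (Submodule.subset_span (Or.inl ⟨_, rfl⟩))
  · have hik : i < k := hi
    obtain ⟨t, ht, h⟩ := hS.orbit_f (k - 1 - i) (by omega)
    rw [show k - 1 - (k - 1 - i) = i by omega] at h
    rw [show f i = t⁻¹ • orb (cycEl Q k e f γ) (e 0) ((k - 1 - i + 1 : ℕ) : ℤ) by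
      rw [h, smul_smul, inv_mul_cancel₀ ht, one_smul]]
    exact Submodule.smul_mem _ _ (Submodule.subset_span (Or.inl ⟨_, rfl⟩))
  · rw [← hS.orbB_one] at hx
    exact Submodule.subset_span (Or.inr hx)

end Setting

theorem torus_pow {a b : V} (ha : Q a = 0) (hb : Q b = 0) (hab : polar Q a b = 1) {t : F} (ht : t ≠ 0)
    {n : ℕ} (hn : t ^ n = 1) : torus Q a b t ^ n = 1 := by
  obtain ⟨h1, h2, h3⟩ := torus_facts ha hb hab ht
  have hp : ∀ (m : ℕ) (x : V), polar Q a x = 0 → polar Q b x = 0 →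
      ((torus Q a b t ^ m : orth Q) : V ≃ₗ[F] V) a = t ^ m • a ∧
      ((torus Q a b t ^ m : orth Q) : V ≃ₗ[F] V) b = (t ^ m)⁻¹ • b ∧
      ((torus Q a b t ^ m : orth Q) : V ≃ₗ[F] V) x = x := by
    intro m x hx hy
    induction m with
    | zero => simp
    | succ m ih =>
      refine ⟨?_, ?_, ?_⟩ <;> rw [pow_succ, orth_mul_apply]
      · rw [h1, map_smul, ih.1, smul_smul, pow_succ']
      · rw [h2, map_smul, ih.2.1, smul_smul, pow_succ, mul_inv_rev]
      · rw [h3 x hx hy, ih.2.2]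
  refine orth_ext fun x => ?_
  have hd := (HypPair.decomp (⟨ha, hb, hab⟩ : HypPair Q a b) x)
  rw [mem_pperp] at hd
  obtain ⟨e1, e2, e3⟩ := hp n _ hd.1 hd.2
  conv_lhs => rw [show x = (x - polar Q b x • a - polar Q a x • b) + polar Q b x • a + polar Q a x • b by module]
  rw [map_add, map_add, map_smul, map_smul, e1, e2, e3, hn, inv_one, one_smul, one_smul]
  change (x - polar Q b x • a - polar Q a x • b) + polar Q b x • a + polar Q a x • b = x
  module

/-- The side condition that produces all distances. -/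
def Good (Q : QuadraticForm F V) (k : ℕ) (β γ : V) : Prop :=
  polar Q β β ≠ 0 ∨ (4 ≤ k ∧ polar Q ((refl Q γ : V ≃ₗ[F] V) β) β ≠ 0) ∨
    (k = 3 ∧ polar Q ((refl Q γ : V ≃ₗ[F] V) β) β ≠ 0 ∧ Q β ≠ 0 ∧ ∀ x : F, IsSquare x)

/-- `Ω` is generated by two elements. -/
theorem exists_pair [FiniteDimensional F V] [Finite F] [Finite V]
    (hQ : (polarBilin Q).Nondegenerate) (hn : 5 ≤ Module.finrank F V) (hS : Setting Q k e f β γ)
    (hA : ⊤ ≤ Submodule.span F (e '' Set.Iio k ∪ f '' Set.Iio k ∪ {β, (refl Q γ : V ≃ₗ[F] V) β}))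
    (hgood : Good Q k β γ) :
    ∃ a b : orth Q, a ∈ commutator (orth Q) ∧ b ∈ commutator (orth Q) ∧
      commutator (orth Q) ≤ Subgroup.closure {a, b} := by
  classical
  cases nonempty_fintype F
  have hk := hS.three_le
  have hF := hS.frame
  have hC := hS.cyc
  obtain ⟨z, hz⟩ := IsCyclic.exists_generator (α := Fˣ)
  have hp : k - 2 < k := by omega
  have hzne : (z : F) * z ≠ 0 := mul_ne_zero z.ne_zero z.ne_zero
  set T := torus Q (f (k - 2)) (e (k - 2)) ((z : F) * z) with hT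
  have hfe : polar Q (f (k - 2)) (e (k - 2)) = 1 := by
    rw [polar_comm, hF.ef _ hp _ hp, if_pos rfl]
  obtain ⟨t1, t2, t3⟩ := torus_facts (hF.Qf _ hp) (hF.Qe _ hp) hfe hzne
  set w := cycEl Q k e f γ with hw'
  -- vectors fixed by the torus
  have fixE : ∀ i < k, i ≠ k - 2 → (T : V ≃ₗ[F] V) (e i) = e i := fun i hi hne =>
    t3 _ (by rw [polar_comm, hF.ef _ hi _ hp, if_neg hne]) (hF.ee _ hp _ hi)
  have fixOff : ∀ x, Off Q k e f x → (T : V ≃ₗ[F] V) x = x := fun x hx =>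
    t3 x (hx _ hp).2 (hx _ hp).1
  obtain ⟨s1, hs1, hu⟩ := hS.orbit_e 0 (by omega)
  rw [Nat.sub_zero, Nat.add_zero] at hu
  obtain ⟨s2, hs2, hu2⟩ := hS.orbit_f 1 (by omega)
  rw [show k - 1 - 1 = k - 2 by omega] at hu2
  obtain ⟨s3, hs3, hu3⟩ := hS.orbit_e 2 (by omega)
  rw [show k - 1 - 2 = k - 3 by omega] at hu3
  let mixd : Bool := decide (polar Q β β ≠ 0 ∨ 4 ≤ k)
  let a0 : V := if mixd then β + orb w (e 0) ((k + 1 : ℕ) : ℤ) else β
  have ha0 : polar Q (e 0) a0 = 0 := by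
    have hb : polar Q (e 0) β = 0 := (hS.offB 0 (by omega)).1
    simp only [a0]
    split_ifs
    · rw [polar_add_right, hb, hu, polar_smul_right, hF.ee 0 (by omega) _ (by omega), smul_zero, add_zero]
    · exact hb
  have hTa : (T : V ≃ₗ[F] V) a0 = a0 := by
    simp only [a0]
    split_ifs
    · rw [map_add, fixOff β hS.offB, hu, map_smul, fixE _ (by omega) (by omega)]
    · exact fixOff β hS.offB
  refine ⟨T * eich Q (e 0) a0, w, mul_mem ?_ (eich_mem_commutator hQ hn _ _),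
    cycEl_mem hQ hn (by omega) hF hS.normG, ?_⟩
  · exact torus_mem hQ hn (hF.Qf _ hp) (hF.Qe _ hp) hfe z.ne_zero
  set M := Subgroup.closure {T * eich Q (e 0) a0, w}
  have hwM : w ∈ M := Subgroup.subset_closure (Set.mem_insert_of_mem _ rfl)
  have hpow : T ^ (Nat.card F - 1) = 1 := by
    refine torus_pow (hF.Qf _ hp) (hF.Qe _ hp) hfe hzne ?_
    rw [mul_pow, Nat.card_eq_fintype_card, FiniteField.pow_card_sub_one_eq_one _ z.ne_zero, mul_one]
  obtain ⟨hTM, hroot⟩ := separate (hF.Qe 0 (by omega)) ha0 (Subgroup.subset_closure (Set.mem_insert _ _))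
    hpow (fixE 0 (by omega) (by omega)) hTa
  set g := (w ^ (2 : ℤ))⁻¹ * T * w ^ (2 : ℤ) with hg'
  have hgM : g ∈ M := mul_mem (mul_mem (inv_mem (zpow_mem hwM _)) hTM) (zpow_mem hwM _)
  have hw2 : ∀ x, ((w ^ (2 : ℤ) : orth Q) : V ≃ₗ[F] V) x = orb w x 2 := fun x => rfl
  have hge : (g : V ≃ₗ[F] V) (e 0) = ((z : F) * z) • e 0 := by
    rw [hg', orth_mul_apply, orth_mul_apply, hw2, show (2 : ℤ) = ((1 + 1 : ℕ) : ℤ) by norm_num, hu2,
      map_smul, t1, smul_comm, map_smul, ← hu2, show ((1 + 1 : ℕ) : ℤ) = (2 : ℤ) by norm_num, ← hw2,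
      orth_inv_apply_apply]
  have hga : (g : V ≃ₗ[F] V) a0 = a0 := by
    have h1 : (T : V ≃ₗ[F] V) (orb w a0 2) = orb w a0 2 := by
      simp only [a0]
      split_ifs
      · have hadd : orb w (β + orb w (e 0) ((k + 1 : ℕ) : ℤ)) 2 = β + orb w (e 0) ((k + 2 + 1 : ℕ) : ℤ) := by
          rw [← hw2, map_add, hw2, hC.periodB, ← orb_add]
          congr 2; push_cast; ring
        rw [hadd, map_add, fixOff β hS.offB, hu3, map_smul, fixE _ (by omega) (by omega)]
      · rw [hC.periodB]; exact fixOff β hS.offB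
    rw [hg', orth_mul_apply, orth_mul_apply, hw2, h1, ← hw2, orth_inv_apply_apply]
  have hline := line_of_scale hgM hz hge hga hroot
  have hfin : ∀ hD : (∀ d : ℕ, 1 ≤ d → d < k →
      Line M (e 0) (orb w (e 0) (d : ℤ)) ∧ Line M (e 0) (orb w (e 0) (-(d : ℤ)))),
      Line M (e 0) β → commutator (orth Q) ≤ M := fun hD hB =>
    hC.commutator_le hwM hQ hn hD hB (hS.span_top hA)
  by_cases hm : polar Q β β ≠ 0 ∨ 4 ≤ k
  · have hmix : Line M (e 0) (β + orb w (e 0) ((k + 1 : ℕ) : ℤ)) := by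
      have ha : a0 = β + orb w (e 0) ((k + 1 : ℕ) : ℤ) := if_pos (decide_eq_true hm)
      rwa [ha] at hline
    obtain ⟨j, hj, hμ⟩ : ∃ j : ℕ, (j = 2 ∨ (j = 3 ∧ 4 ≤ k)) ∧ polar Q (orb w β (j : ℤ)) β ≠ 0 := by
      by_cases hb : polar Q β β ≠ 0
      · exact ⟨2, Or.inl rfl, by rw [Nat.cast_ofNat, hC.periodB]; exact hb⟩
      · have hk4 : 4 ≤ k := hm.resolve_left hb
        refine ⟨3, Or.inr ⟨rfl, hk4⟩, ?_⟩
        rw [Nat.cast_ofNat, hC.orbB_mod, if_neg (by decide), hS.orbB_one]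
        rcases hgood with h | ⟨-, h⟩ | ⟨h3, -⟩
        · exact absurd h hb
        · exact h
        · omega
    have hD := hC.line_all hwM hmix j hj hμ
    refine hfin hD ?_
    have h1 := (hD (k - 1) (by omega) (by omega)).2
    obtain ⟨t, ht, e'⟩ := hC.orb_mod (-((k - 1 : ℕ) : ℤ))
    rw [show (-((k - 1 : ℕ) : ℤ)) % ((2 * k : ℕ) : ℤ) = ((k + 1 : ℕ) : ℤ) by
      rw [show -((k - 1 : ℕ) : ℤ) = ((k + 1 : ℕ) : ℤ) - ((2 * k : ℕ) : ℤ) by omega, Int.sub_emod_right,
        Int.emod_eq_of_lt (by omega) (by omega)]] at e'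
    rw [e'] at h1
    have h := hmix.sub (h1.of_smul t ht)
    rwa [add_sub_cancel_right] at h
  · have hpure : Line M (e 0) β := by
      have ha : a0 = β := if_neg (fun h => hm (of_decide_eq_true h))
      rwa [ha] at hline
    have hb : ¬ polar Q β β ≠ 0 := fun h => hm (Or.inl h)
    rcases hgood with h | ⟨h, -⟩ | ⟨h3, hμ, hQb, hsq⟩
    · exact absurd h hb
    · exact absurd (Or.inr h) hm
    · exact hfin (hC.line_all_three hwM h3 hpure (by rw [hS.orbB_one]; exact hμ) hQb hsq) hpure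

end Cfsg.Agent.H38.OrthTwoGen
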