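import Cfsg.Agent.H38.OrthTwoGen.Gen

/-!
Root groups generated from a cyclic element and one mixed root group.
-/

set_option autoImplicit false

namespace Cfsg.Agent.H38.OrthTwoGen

open QuadraticMap hiding sq
open Cfsg.Agent.H5

variable {F V : Type*} [Field F] [AddCommGroup V] [Module F V] {Q : QuadraticForm F V}

theorem ne_half {k : ℕ} {n : ℤ} (h1 : n ≠ k) (h2 : n ≠ -(k : ℤ)) (h3 : -(3 * (k : ℤ)) < n) (h4 : n < 3 * (k : ℤ)) :
    n % (2 * k : ℕ) ≠ k := by
  intro h
  have e := Int.emod_add_mul_ediv n ((2 * k : ℕ) : ℤ)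
  rw [h] at e
  push_cast at e
  generalize n / (2 * (k : ℤ)) = q at e
  have hq1 : q < 1 := by nlinarith
  have hq2 : -2 < q := by nlinarith
  obtain rfl | rfl : q = 0 ∨ q = -1 := by omega
  · omega
  · omega

namespace Cyc

variable {w : orth Q} {k : ℕ} {e β : V} {M : Subgroup (orth Q)} (hC : Cyc Q w k e β) (hw : w ∈ M)

include hC hw

/-- The first pair of root groups from the mixed one. -/
theorem line_first (hmix : Line M e (β + orb w e (k + 1 : ℕ))) (j : ℕ) (hj2 : 2 ≤ j) (hjk : j < 2 * k - 1)
    (hjne : j ≠ k) (hμ : polar Q (orb w β j) β ≠ 0) : Line M e (orb w e j) := by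
  have hk := hC.three_le
  set s : ℤ := ((k + 1 : ℕ) : ℤ) with hs
  set a := orb w β j + orb w e ((j : ℤ) + s) with ha
  have hjm := hmix.conj (zpow_mem hw (j : ℤ))
  rw [map_add, ← orb_add w e (j : ℤ) s] at hjm
  change Line M (orb w e j) a at hjm
  obtain ⟨hQu, hua, hg⟩ := hjm 1
  rw [one_smul] at hua hg
  set g := eich Q (orb w e j) a
  have hje : polar Q (orb w e j) e = 0 := by
    rw [polar_comm]; exact hC.polar_zero _ (ne_half (by omega) (by omega) (by omega) (by omega))
  have hae : polar Q a e = 0 := by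
    rw [ha, polar_add_left, polar_comm, polar_comm (⇑Q) _ e]
    have h1 := hC.polarB 0 (j : ℤ)
    rw [orb_zero] at h1
    rw [h1, hC.polar_zero _ (ne_half (by omega) (by omega) (by omega) (by omega)), add_zero]
  have hge : (g : V ≃ₗ[F] V) e = e := eich_apply_of_ortho hQu hua hje hae
  have hjb : polar Q (orb w e j) (β + orb w e s) = 0 := by
    rw [polar_add_right, hC.polar_zero' (ne_half (by omega) (by omega) (by omega) (by omega))]
    have h1 := hC.polarB (j : ℤ) 0
    rw [orb_zero] at h1
    rw [h1, add_zero]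
  have hab : polar Q a (β + orb w e s) = polar Q (orb w β j) β := by
    rw [ha, polar_add_left, polar_add_right, polar_add_right, polar_comm (⇑Q) (orb w β j) (orb w e s),
      hC.polarB, hC.polar_zero' (ne_half (by omega) (by omega) (by omega) (by omega))]
    have h1 := hC.polarB ((j : ℤ) + s) 0
    rw [orb_zero] at h1
    rw [h1, add_zero, add_zero, add_zero]
  have hmov : (g : V ≃ₗ[F] V) (β + orb w e s) =
      (β + orb w e s) - polar Q (orb w β j) β • orb w e j := by
    rw [eich_apply hQu hua, hjb, hab]; simp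
  have h := hmix.conj hg
  rw [hge, hmov] at h
  have h2 := hmix.sub h
  rw [sub_sub_cancel] at h2
  exact h2.of_smul _ hμ

/-- Raising the distance by one. -/
theorem line_step (hmix : Line M e (β + orb w e (k + 1 : ℕ))) {d : ℤ}
    (hd : Line M e (orb w e d)) (h1 : d % (2 * k : ℕ) ≠ 0) (h2 : (1 + d) % (2 * k : ℕ) ≠ k) :
    Line M e (orb w e (d + 1)) := by
  have hk := hC.three_le
  have hg := hC.line_shift hw (i := 0) (by rwa [orb_zero]) 1 (d := d) 1
  rw [one_smul, add_zero] at hg
  obtain ⟨hQu, hua, hgM⟩ := hg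
  set s : ℤ := ((k + 1 : ℕ) : ℤ) with hs
  set g := eich Q (orb w e 1) (orb w e (1 + d))
  have hue : polar Q (orb w e 1) e = 0 := by
    rw [polar_comm]; exact hC.polar_zero _ (ne_half (by omega) (by omega) (by omega) (by omega))
  have hae : polar Q (orb w e (1 + d)) e = 0 := by
    rw [polar_comm]; exact hC.polar_zero _ h2
  have hge : (g : V ≃ₗ[F] V) e = e := eich_apply_of_ortho hQu hua hue hae
  have hub : polar Q (orb w e 1) (β + orb w e s) = polar Q (orb w e 1) (orb w e s) := by
    rw [polar_add_right]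
    have h := hC.polarB 1 0
    rw [orb_zero] at h
    rw [h, zero_add]
  have hab : polar Q (orb w e (1 + d)) (β + orb w e s) = 0 := by
    rw [polar_add_right, hC.polar_zero' (j := s) (by
      intro h
      refine h1 ?_
      have : (s - (1 + d)) % ((2 * k : ℕ) : ℤ) = ((k : ℤ) - d) % ((2 * k : ℕ) : ℤ) := by
        congr 1; omega
      rw [this] at h
      have hk2 : (((k : ℤ) - d) - k) % ((2 * k : ℕ) : ℤ) = 0 := by
        rw [Int.sub_emod, h, Int.emod_eq_of_lt (a := (k : ℤ)) (by omega) (by omega)]; simp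
      rw [show (k : ℤ) - d - k = -d by ring] at hk2
      exact Int.emod_eq_zero_of_dvd (dvd_neg.1 (Int.dvd_of_emod_eq_zero hk2)))]
    have h := hC.polarB (1 + d) 0
    rw [orb_zero] at h
    rw [h, add_zero]
  have hmov : (g : V ≃ₗ[F] V) (β + orb w e s) =
      (β + orb w e s) + polar Q (orb w e 1) (orb w e s) • orb w e (1 + d) := by
    rw [eich_apply hQu hua, hub, hab, hC.orb_sing]; simp
  have h := hmix.conj hgM
  rw [hge, hmov] at h
  have h3 := h.sub hmix
  rw [add_sub_cancel_left] at h3
  rw [add_comm]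
  refine h3.of_smul _ (hC.polar_anti _ _ ?_)
  have e1 : s - 1 = (k : ℤ) := by omega
  rw [e1, Int.emod_eq_of_lt (by omega) (by omega)]

/-- All distances. -/
theorem line_all (hmix : Line M e (β + orb w e (k + 1 : ℕ))) (j : ℕ) (hj : j = 2 ∨ (j = 3 ∧ 4 ≤ k))
    (hμ : polar Q (orb w β j) β ≠ 0) :
    ∀ d : ℕ, 1 ≤ d → d < k → Line M e (orb w e (d : ℤ)) ∧ Line M e (orb w e (-(d : ℤ))) := by
  have hk := hC.three_le
  have hJ := hC.line_first hw hmix j (by omega) (by omega) (by omega) hμ
  have emod : ∀ (n : ℤ) (r : ℤ), 0 ≤ r → r < (2 * k : ℕ) → (n = r ∨ n = r - (2 * k : ℕ)) →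
      n % (2 * k : ℕ) = r := by
    rintro n r h0 h1 (rfl | rfl)
    · exact Int.emod_eq_of_lt h0 h1
    · rw [Int.sub_emod_right, Int.emod_eq_of_lt h0 h1]
  have hneg : Line M e (orb w e (-(2 : ℤ))) := by
    rcases hj with rfl | ⟨rfl, hk4⟩
    · exact hC.line_neg hw (by exact_mod_cast hJ)
    · have h3 : Line M e (orb w e (-(3 : ℤ))) := hC.line_neg hw (by exact_mod_cast hJ)
      have := hC.line_step hw hmix h3 (by rw [emod (-3) ((2 * k : ℕ) - 3) (by omega) (by omega) (Or.inr (by omega))]; omega)
        (by rw [emod (1 + -3) ((2 * k : ℕ) - 2) (by omega) (by omega) (Or.inr (by omega))]; omega)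
      simpa using this
  have hm1 : Line M e (orb w e (-(1 : ℤ))) := by
    have := hC.line_step hw hmix hneg (by rw [emod (-2) ((2 * k : ℕ) - 2) (by omega) (by omega) (Or.inr (by omega))]; omega)
      (by rw [emod (1 + -2) ((2 * k : ℕ) - 1) (by omega) (by omega) (Or.inr (by omega))]; omega)
    simpa using this
  have h1 : Line M e (orb w e 1) := by simpa using hC.line_neg hw hm1
  have h2 : Line M e (orb w e 2) := by simpa using hC.line_neg hw hneg
  intro d
  induction d using Nat.strong_induction_on with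
  | _ d ih =>
    intro hd1 hdk
    have hp : Line M e (orb w e (d : ℤ)) := by
      by_cases hd2 : d ≤ 2
      · interval_cases d
        · exact h1
        · exact h2
      · obtain ⟨c, rfl⟩ : ∃ c, d = c + 1 := ⟨d - 1, by omega⟩
        have hc := (ih c (by omega) (by omega) (by omega)).1
        have := hC.line_step hw hmix hc (by rw [emod _ (c : ℤ) (by omega) (by omega) (Or.inl rfl)]; omega)
          (by rw [emod (1 + (c : ℤ)) ((1 + c : ℕ) : ℤ) (by omega) (by omega) (Or.inl (by omega))]; omega)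
        exact_mod_cast this
    exact ⟨hp, hC.line_neg hw hp⟩

/-- Small period in characteristic two: all distances from a pure root group. -/
theorem line_all_three (hk : k = 3) (hpure : Line M e β) (hμ : polar Q (orb w β 1) β ≠ 0)
    (hQβ : Q β ≠ 0) (hsq : ∀ x : F, IsSquare x) :
    ∀ d : ℕ, 1 ≤ d → d < k → Line M e (orb w e (d : ℤ)) ∧ Line M e (orb w e (-(d : ℤ))) := by
  subst hk
  have hb1 : Line M (orb w e 1) (orb w β 1) := hpure.conj (zpow_mem hw 1)
  obtain ⟨hQu, hua, hg⟩ := hb1 1
  rw [one_smul] at hua hg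
  have hue : polar Q (orb w e 1) e = 0 := by
    rw [polar_comm]; exact hC.polar_zero _ (by decide)
  have hbe : ∀ i : ℤ, polar Q (orb w β i) e = 0 := fun i => by
    rw [polar_comm]; simpa [orb_zero] using hC.polarB 0 i
  have heb : ∀ i : ℤ, polar Q (orb w e i) β = 0 := fun i => by
    simpa [orb_zero] using hC.polarB i 0
  have h1 : Line M e (orb w e 1) := by
    have h := hpure.conj hg
    rw [eich_apply_of_ortho hQu hua hue (hbe 1), eich_apply hQu hua, heb] at h
    simp only [zero_smul, add_zero, mul_zero, sub_zero] at h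
    have h2 := hpure.sub h
    rw [sub_sub_cancel] at h2
    exact h2.of_smul _ hμ
  have hm1 : Line M e (orb w e (-1)) := hC.line_neg hw h1
  have h3 : Line M (orb w e 3) (orb w β 3) := hpure.conj (zpow_mem hw 3)
  have hb3 : orb w β 3 = orb w β 1 := by rw [hC.orbB_mod]; rfl
  have hu1 : Line M (orb w e 1) e := h1.flip (hC.orb_sing _)
  have hν : polar Q (orb w e 3) e ≠ 0 := by
    rw [polar_comm]; exact hC.anti
  have key : ∀ t : F, RootIn M (orb w e 1) ((polar Q (orb w e 3) e * (t * t) * Q β) • orb w e 3) := by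
    intro t
    obtain ⟨hQ3, h3a, hg3⟩ := h3 t
    have h := (hu1 1).conj hg3
    have hfix : (eich Q (orb w e 3) (t • orb w β 3) : V ≃ₗ[F] V) (orb w e 1) = orb w e 1 := by
      refine eich_apply_of_ortho hQ3 h3a (hC.polar_zero' (by decide)) ?_
      rw [polar_smul_left, polar_comm, hC.polarB, smul_zero]
    rw [hfix, one_smul, eich_apply hQ3 h3a, polar_smul_left, hbe, smul_zero, QuadraticMap.map_smul,
      hb3] at h
    have hQ1 : Q (orb w β 1) = Q β := by rw [orb, orth_map]
    rw [hQ1, zero_smul, sub_zero] at h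
    have h' := ((hu1 1).add ((hb1.smul (polar Q (orb w e 3) e * t)) 1)).sub h
    convert h' using 1
    simp only [smul_eq_mul, one_smul]
    module
  have h31 : Line M (orb w e 1) (orb w e 3) := fun c => by
    obtain ⟨t, ht⟩ := hsq (c / (polar Q (orb w e 3) e * Q β))
    have h := key t
    rwa [← ht, show polar Q (orb w e 3) e * (c / (polar Q (orb w e 3) e * Q β)) * Q β = c by
      field_simp] at h
  have h2 : Line M e (orb w e 2) := by
    have h := hC.line_shift hw h31 (-1)
    simpa [orb_zero] using h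
  intro d hd1 hd3
  interval_cases d
  · exact ⟨h1, hm1⟩
  · exact ⟨h2, hC.line_neg hw h2⟩

end Cyc

end Cfsg.Agent.H38.OrthTwoGen
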