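import Cfsg.Agent.H38.OrthTwoGen.Criterion

/-!
The cyclic monomial element of a frame and the two generators.
-/

set_option autoImplicit false

namespace Cfsg.Agent.H38.OrthTwoGen

open QuadraticMap hiding sq
open Cfsg.Agent.H5
open scoped commutatorElement

variable {F V : Type*} [Field F] [AddCommGroup V] [Module F V] {Q : QuadraticForm F V}

/-- A system of hyperbolic pairs. -/
structure Frame (Q : QuadraticForm F V) (k : ℕ) (e f : ℕ → V) : Prop where
  Qe : ∀ i < k, Q (e i) = 0
  Qf : ∀ i < k, Q (f i) = 0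
  ee : ∀ i < k, ∀ j < k, polar Q (e i) (e j) = 0
  ff : ∀ i < k, ∀ j < k, polar Q (f i) (f j) = 0
  ef : ∀ i < k, ∀ j < k, polar Q (e i) (f j) = if i = j then 1 else 0

/-- A vector orthogonal to the frame. -/
def Off (Q : QuadraticForm F V) (k : ℕ) (e f : ℕ → V) (x : V) : Prop :=
  ∀ i < k, polar Q (e i) x = 0 ∧ polar Q (f i) x = 0

variable {k : ℕ} {e f : ℕ → V}

/-- The Weyl element exchanging two neighbouring pairs. -/
noncomputable def nb (Q : QuadraticForm F V) (e f : ℕ → V) (i : ℕ) : orth Q :=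
  eich Q (e i) (f (i + 1)) * eich Q (e (i + 1)) (-(f i)) * eich Q (e i) (f (i + 1))

section nb

variable (hF : Frame Q k e f) {i : ℕ} (hi : i + 1 < k)

include hF hi

theorem nb_apply (x : V) (X : V → V) (Y : V → V)
    (hX : ∀ y, X y = y + polar Q (e i) y • f (i + 1) - polar Q (f (i + 1)) y • e i)
    (hY : ∀ y, Y y = y - polar Q (e (i + 1)) y • f i + polar Q (f i) y • e (i + 1)) :
    (nb Q e f i : V ≃ₗ[F] V) x = X (Y (X x)) := by
  have h1 : polar Q (e i) (f (i + 1)) = 0 := by
    rw [hF.ef i (by omega) _ hi, if_neg (by omega)]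
  have h2 : polar Q (e (i + 1)) (-(f i)) = 0 := by
    rw [polar_neg_right, hF.ef _ hi i (by omega), if_neg (by omega), neg_zero]
  have hx : ∀ y, (eich Q (e i) (f (i + 1)) : V ≃ₗ[F] V) y = X y := fun y => by
    rw [eich_apply (hF.Qe i (by omega)) h1, hX, hF.Qf _ hi]; simp
  have hy : ∀ y, (eich Q (e (i + 1)) (-(f i)) : V ≃ₗ[F] V) y = Y y := fun y => by
    rw [eich_apply (hF.Qe _ hi) h2, hY, QuadraticMap.map_neg, hF.Qf i (by omega), polar_neg_left]
    simp only [smul_neg, neg_smul, zero_mul, zero_smul, sub_zero]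
    module
  rw [nb, orth_mul_apply, orth_mul_apply, hx, hy, hx]

theorem nb_facts :
    (nb Q e f i : V ≃ₗ[F] V) (e i) = e (i + 1) ∧ (nb Q e f i : V ≃ₗ[F] V) (f i) = f (i + 1) ∧
    (nb Q e f i : V ≃ₗ[F] V) (e (i + 1)) = -(e i) ∧ (nb Q e f i : V ≃ₗ[F] V) (f (i + 1)) = -(f i) ∧
    ∀ x, polar Q (e i) x = 0 → polar Q (f i) x = 0 → polar Q (e (i + 1)) x = 0 →
      polar Q (f (i + 1)) x = 0 → (nb Q e f i : V ≃ₗ[F] V) x = x := by
  have h0 : i < k := by omega
  let X : V → V := fun y => y + polar Q (e i) y • f (i + 1) - polar Q (f (i + 1)) y • e i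
  let Y : V → V := fun y => y - polar Q (e (i + 1)) y • f i + polar Q (f i) y • e (i + 1)
  have hA : ∀ x, (nb Q e f i : V ≃ₗ[F] V) x = X (Y (X x)) := fun x =>
    nb_apply hF hi x X Y (fun _ => rfl) (fun _ => rfl)
  have a1 := hF.ee i h0 i h0
  have a2 := hF.ee i h0 _ hi
  have a3 := hF.ee _ hi i h0
  have a4 := hF.ee _ hi _ hi
  have b1 := hF.ff i h0 i h0
  have b2 := hF.ff i h0 _ hi
  have b3 := hF.ff _ hi i h0
  have b4 := hF.ff _ hi _ hi
  have c1 : polar Q (e i) (f i) = 1 := by rw [hF.ef i h0 i h0, if_pos rfl]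
  have c2 : polar Q (e i) (f (i + 1)) = 0 := by rw [hF.ef i h0 _ hi, if_neg (by omega)]
  have c3 : polar Q (e (i + 1)) (f i) = 0 := by rw [hF.ef _ hi i h0, if_neg (by omega)]
  have c4 : polar Q (e (i + 1)) (f (i + 1)) = 1 := by rw [hF.ef _ hi _ hi, if_pos rfl]
  have d1 : polar Q (f i) (e i) = 1 := by rw [polar_comm]; exact c1
  have d2 : polar Q (f (i + 1)) (e i) = 0 := by rw [polar_comm]; exact c2
  have d3 : polar Q (f i) (e (i + 1)) = 0 := by rw [polar_comm]; exact c3
  have d4 : polar Q (f (i + 1)) (e (i + 1)) = 1 := by rw [polar_comm]; exact c4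
  refine ⟨?_, ?_, ?_, ?_, fun x h1 h2 h3 h4 => ?_⟩
  all_goals rw [hA]
  all_goals simp only [X, Y, polar_add_right, polar_sub_right, polar_smul_right, smul_eq_mul,
    a1, a2, a3, a4, b1, b2, b3, b4, c1, c2, c3, c4, d1, d2, d3, d4, mul_zero, mul_one, add_zero,
    zero_add, sub_zero, zero_sub, zero_smul, one_smul, sub_self, add_sub_cancel_left, *]
  all_goals module

end nb

/-- The product of the neighbouring exchanges. -/
noncomputable def shiftEl (Q : QuadraticForm F V) (e f : ℕ → V) : ℕ → orth Q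
  | 0 => 1
  | l + 1 => nb Q e f l * shiftEl Q e f l

theorem shiftEl_facts (hF : Frame Q k e f) :
    ∀ l < k, (shiftEl Q e f l : V ≃ₗ[F] V) (e 0) = e l ∧ (shiftEl Q e f l : V ≃ₗ[F] V) (f 0) = f l ∧
      (∀ i < k, i + 1 ≤ l → (shiftEl Q e f l : V ≃ₗ[F] V) (e (i + 1)) = -(e i) ∧
        (shiftEl Q e f l : V ≃ₗ[F] V) (f (i + 1)) = -(f i)) ∧
      (∀ x, (∀ i ≤ l, polar Q (e i) x = 0 ∧ polar Q (f i) x = 0) →
        (shiftEl Q e f l : V ≃ₗ[F] V) x = x) := by
  intro l
  induction l with
  | zero =>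
    intro _
    exact ⟨rfl, rfl, fun i _ h => by omega, fun x _ => rfl⟩
  | succ l ih =>
    intro hl
    obtain ⟨p1, p2, p3, p4⟩ := ih (by omega)
    obtain ⟨n1, n2, n3, n4, n5⟩ := nb_facts hF hl
    refine ⟨?_, ?_, fun i hi hil => ?_, fun x hx => ?_⟩
    · rw [shiftEl, orth_mul_apply, p1, n1]
    · rw [shiftEl, orth_mul_apply, p2, n2]
    · rw [shiftEl, orth_mul_apply, orth_mul_apply]
      rcases Nat.lt_or_ge (i + 1) (l + 1) with h | h
      · have hfix : ∀ y, (y = e i ∨ y = f i) → (nb Q e f l : V ≃ₗ[F] V) y = y := by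
          rintro y hy
          have hil' : i < l := by omega
          refine n5 y ?_ ?_ ?_ ?_
          all_goals rcases hy with rfl | rfl
          all_goals first
            | exact hF.ee _ (by omega) _ (by omega)
            | exact hF.ff _ (by omega) _ (by omega)
            | rw [hF.ef _ (by omega) _ (by omega), if_neg (by omega)]
            | rw [polar_comm, hF.ef _ (by omega) _ (by omega), if_neg (by omega)]
        rw [(p3 i hi (by omega)).1, (p3 i hi (by omega)).2, map_neg, map_neg, hfix _ (Or.inl rfl),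
          hfix _ (Or.inr rfl)]
        exact ⟨rfl, rfl⟩
      · obtain rfl : i = l := by omega
        have hfix : ∀ y, (y = e (i + 1) ∨ y = f (i + 1)) → (shiftEl Q e f i : V ≃ₗ[F] V) y = y := by
          rintro y hy
          refine p4 y fun j hj => ?_
          rcases hy with rfl | rfl <;> constructor
          all_goals first
            | exact hF.ee _ (by omega) _ (by omega)
            | exact hF.ff _ (by omega) _ (by omega)
            | rw [hF.ef _ (by omega) _ (by omega), if_neg (by omega)]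
            | rw [polar_comm, hF.ef _ (by omega) _ (by omega), if_neg (by omega)]
        rw [hfix _ (Or.inl rfl), hfix _ (Or.inr rfl)]
        exact ⟨n3, n4⟩
    · rw [shiftEl, orth_mul_apply, p4 x (fun i hi => hx i (by omega))]
      exact n5 x (hx l (by omega)).1 (hx l (by omega)).2 (hx _ le_rfl).1 (hx _ le_rfl).2

/-- The cyclic element. -/
noncomputable def cycEl (Q : QuadraticForm F V) (k : ℕ) (e f : ℕ → V) (γ : V) : orth Q :=
  shiftEl Q e f (k - 1) * (refl Q (e 0 + Q γ • f 0) * refl Q γ)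

/-- The torus element of a pair. -/
noncomputable def torus (Q : QuadraticForm F V) (a b : V) (t : F) : orth Q :=
  refl Q (a - b) * refl Q (a - t • b)

theorem norm_sub_smul {a b : V} (ha : Q a = 0) (hb : Q b = 0) (hab : polar Q a b = 1) (t : F) :
    Q (a - t • b) = -t := by
  rw [map_sub_smul, ha, hb, hab]; ring

theorem torus_facts {a b : V} (ha : Q a = 0) (hb : Q b = 0) (hab : polar Q a b = 1) {t : F} (ht : t ≠ 0) :
    (torus Q a b t : V ≃ₗ[F] V) a = t • a ∧ (torus Q a b t : V ≃ₗ[F] V) b = t⁻¹ • b ∧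
      ∀ x, polar Q a x = 0 → polar Q b x = 0 → (torus Q a b t : V ≃ₗ[F] V) x = x := by
  have hba : polar Q b a = 1 := by rw [polar_comm]; exact hab
  have n1 : Q (a - b) = -1 := by simpa using norm_sub_smul ha hb hab (1 : F)
  have n2 : Q (a - t • b) = -t := norm_sub_smul ha hb hab t
  have sa : polar Q a a = 0 := by rw [polar_self', ha, mul_zero]
  have sb : polar Q b b = 0 := by rw [polar_self', hb, mul_zero]
  refine ⟨?_, ?_, fun x hx hy => ?_⟩
  all_goals rw [torus, orth_mul_apply, refl_apply, refl_apply, n1, n2]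
  all_goals simp only [polar_sub_left, polar_sub_right, polar_smul_left, polar_smul_right, smul_eq_mul,
    sa, sb, hab, hba, mul_zero, mul_one, zero_sub, sub_zero, *]
  all_goals match_scalars <;> field_simp <;> ring

section

variable [FiniteDimensional F V] [Finite F] [Finite V]

theorem refl_mul_refl_mem (hQ : (polarBilin Q).Nondegenerate) (hn : 5 ≤ Module.finrank F V) {u v : V}
    (hu : Q u ≠ 0) (hv : Q v ≠ 0) (huv : sqc (Q u) = sqc (Q v)) :
    refl Q u * refl Q v ∈ commutator (orth Q) := by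
  obtain ⟨g, hg⟩ := exists_conj_refl hQ (Or.inr (by omega)) hu hv huv
  have : refl Q u * refl Q v = ⁅refl Q u, g⁆ := by
    rw [← hg, commutatorElement_def, refl_inv]; group
  rw [this, commutator_def]
  exact Subgroup.commutator_mem_commutator (Subgroup.mem_top _) (Subgroup.mem_top _)

theorem cycEl_mem (hQ : (polarBilin Q).Nondegenerate) (hn : 5 ≤ Module.finrank F V) (hk : 0 < k)
    (hF : Frame Q k e f) {γ : V} (hγ : Q γ ≠ 0) : cycEl Q k e f γ ∈ commutator (orth Q) := by
  refine mul_mem ?_ ?_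
  · generalize k - 1 = l
    induction l with
    | zero => exact one_mem _
    | succ l ih =>
      exact mul_mem (mul_mem (mul_mem (eich_mem_commutator hQ hn _ _) (eich_mem_commutator hQ hn _ _))
        (eich_mem_commutator hQ hn _ _)) ih
  · have h : Q (e 0 + Q γ • f 0) = Q γ := by
      rw [map_add_smul, hF.Qe 0 hk, hF.Qf 0 hk, hF.ef 0 hk 0 hk, if_pos rfl]; ring
    exact refl_mul_refl_mem hQ hn (by rw [h]; exact hγ) hγ (by rw [h])

theorem torus_mem (hQ : (polarBilin Q).Nondegenerate) (hn : 5 ≤ Module.finrank F V) {a b : V}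
    (ha : Q a = 0) (hb : Q b = 0) (hab : polar Q a b = 1) {z : F} (hz : z ≠ 0) :
    torus Q a b (z * z) ∈ commutator (orth Q) := by
  have n1 : Q (a - b) = -1 := by simpa using norm_sub_smul ha hb hab (1 : F)
  refine refl_mul_refl_mem hQ hn (by rw [n1]; simp) (by rw [norm_sub_smul ha hb hab]; simp [hz]) ?_
  rw [n1, norm_sub_smul ha hb hab]
  exact (sqc_eq_sqc_iff (by simp) (by simp [hz])).2 ⟨z, hz, by ring⟩

end

end Cfsg.Agent.H38.OrthTwoGen
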